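import Cfsg.Agent.H0.QJ3.D
set_option maxRecDepth 100000
set_option Elab.async false
set_option linter.unusedSectionVars false
namespace H0.QJ3
open H0 BN 
theorem defs_ok : DefsOK R.p defs 9 := defsOK_of_chk c14
universe u
variable {G : Type u} [Group G] [Finite G] (m0 : Model G) (h0 : m0.R = H0.MJ3.R)
noncomputable def m : Model G := m0.ext (lg := nat_lit 13) (N := nat_lit 8192) (l := H0.MJ3.nl) h0 nl nl_ok 9 rfl defs defs_ok (by decide +kernel)
theorem mR : (m m0 h0).R = R := rfl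
variable (hb : m0.pst [2, 1, 0] = ⊥) (hc : Nat.card G = 50232960)
include h0 hb hc
theorem base : (m m0 h0).pst [2, 1, 0] = ⊥ := hb
omit hb hc in
theorem ch2_ok : (m m0 h0).ChainOK ch2 [] := ((m m0 h0).chain_cons [0, 1, 2, 3, 4] (Model.via _ (mR m0 h0) (fun R => Model.fixP R [] [[9], [10], [11], [12], [15]]) c2) (Model.via _ (mR m0 h0) (fun R => Model.growP R [[9], [10], [11], [12], [15]] [0, 1, 2, 3, 4] 0 32) c3) ((m m0 h0).chain_cons [0, 1] (Model.via _ (mR m0 h0) (fun R => Model.fixP R [0] [[10, 11, 13], [14, 15]]) c0) (Model.via _ (mR m0 h0) (fun R => Model.growP R [[10, 11, 13], [14, 15]] [0, 1] 1 4) c1) ((m m0 h0).chain_nil _)))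
theorem pb2 : PBound G (2 ^ (0 + 1)) :=
  (m m0 h0).pbound C2 9 (k := 392445) (K := 2) (e := 1) hc (lt_step_all (a := 0) (k := 39) (lt_zero_all _) ((m m0 h0).rules_of (base m0 h0 hb hc) (Model.via _ (mR m0 h0) (fun R => rulesB R [2, 1, 0] (fun i => sh 9 (C2.L i)) (fun i => sh 9 (C2.R i)) 0 39) c4))) (ch2_ok m0 h0) (by decide +kernel) tests2 (all_take_done (all_take_step (all_take_zero _ tests2) (allL_spec c5)) (by decide +kernel))
    av2 FS2 YS2 rows2 (all_take_done (all_take_step (all_take_zero _ rows2) (allL_spec c6)) (by decide +kernel)) c7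
omit hb hc in
theorem ch3_ok : (m m0 h0).ChainOK ch3 [] := ((m m0 h0).chain_cons [0, 1, 2, 3, 4, 0, 1, 2, 4, 3] (Model.via _ (mR m0 h0) (fun R => Model.fixP R [] [[18], [19], [20], [21], [22]]) c8) (Model.via _ (mR m0 h0) (fun R => Model.growP R [[18], [19], [20], [21], [22]] [0, 1, 2, 3, 4, 0, 1, 2, 4, 3] 0 243) c9) ((m m0 h0).chain_nil _))
theorem pb3 : PBound G (3 ^ (1 + 1)) :=
  (m m0 h0).pbound C3 18 (k := 206720) (K := 3) (e := 2) hc (lt_step_all (a := 0) (k := 15) (lt_zero_all _) ((m m0 h0).rules_of (base m0 h0 hb hc) (Model.via _ (mR m0 h0) (fun R => rulesB R [2, 1, 0] (fun i => sh 18 (C3.L i)) (fun i => sh 18 (C3.R i)) 0 15) c10))) (ch3_ok m0 h0) (by decide +kernel) tests3 (all_take_done (all_take_step (all_take_zero _ tests3) (allL_spec c11)) (by decide +kernel))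
    av3 FS3 YS3 rows3 (all_take_done (all_take_step (all_take_zero _ rows3) (allL_spec c12)) (by decide +kernel)) c13
theorem bound (Γ : Type u) [Group Γ] [Finite Γ] (σ : Γ →* G) (hσ : Cfsg.IsStemExtension σ) : Nat.card σ.ker ∣ 3 :=
  card_ker_dvd (M := 19) (k := 7) (L := [2, 3]) hc (by decide +kernel) (ex_bound (pb2 m0 h0 hb hc) (by decide) (ex_bound (pb3 m0 h0 hb hc) (by decide) ex_bound_nil)) Γ σ hσ
end H0.QJ3
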